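import Cfsg.Agent.Lib.Char.FrobSchur
import Cfsg.Agent.Lib.Char.DefectZero
import Cfsg.Agent.Lib.Induce.Basic

/-!
# Characters afforded by representations over a subfield of `ℂ`; Brauer's splitting field theorem
-/

set_option autoImplicit false

open _root_.Cfsg.Lib.Char Representation Module
open scoped ComplexConjugate

namespace Cfsg.Lib.Char

variable {G : Type*} [Group G] (F : Subfield ℂ) {χ ψ : G → ℂ}

/-- `χ` is afforded by matrices with entries in `F`. -/
def IsFChar (χ : G → ℂ) : Prop :=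
  ∃ (n : ℕ) (A : G →* Matrix (Fin n) (Fin n) F), ∀ g, χ g = ((A g).trace : F)

/-- `χ` is afforded by an irreducible representation over `F`. -/
def IsFIrr (χ : G → ℂ) : Prop :=
  ∃ (n : ℕ) (ρ : Representation F G (Fin n → F)), ρ.IsIrreducible ∧ ∀ g, χ g = (ρ.character g : F)

variable {F}

theorem isFChar_character {V : Type*} [AddCommGroup V] [Module F V] [FiniteDimensional F V]
    (ρ : Representation F G V) : IsFChar F fun g => (ρ.character g : ℂ) :=
  ⟨_, (LinearMap.toMatrixAlgEquiv (Module.finBasis F V)).toMonoidHom.comp ρ, fun g =>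
    congrArg Subtype.val (LinearMap.trace_eq_matrix_trace F (Module.finBasis F V) (ρ g))⟩

theorem isFIrr_character {V : Type*} [AddCommGroup V] [Module F V] [FiniteDimensional F V]
    (ρ : Representation F G V) [ρ.IsIrreducible] : IsFIrr F fun g => (ρ.character g : ℂ) :=
  ⟨_, _, isIrreducible_of_equiv (transportEquiv ρ (Module.finBasis F V).equivFun), fun g => by
    rw [char_iso (transportEquiv ρ (Module.finBasis F V).equivFun)]⟩

theorem IsFIrr.isFChar (h : IsFIrr F χ) : IsFChar F χ := by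
  obtain ⟨n, ρ, -, h⟩ := h
  exact funext h ▸ isFChar_character ρ

theorem IsFChar.exists_rep (h : IsFChar F χ) :
    ∃ (n : ℕ) (ρ : Representation F G (Fin n → F)), ∀ g, χ g = (ρ.character g : F) := by
  obtain ⟨n, A, h⟩ := h
  exact ⟨n, (Matrix.toLinAlgEquiv' (R := F) (n := Fin n)).toMonoidHom.comp A, fun g => by
    rw [h, ← Matrix.trace_toLin'_eq]; rfl⟩

theorem IsFChar.exists_complex (h : IsFChar F χ) :
    ∃ (n : ℕ) (σ : Representation ℂ G (Fin n → ℂ)), σ.character = χ ∧
      ∀ g i j, LinearMap.toMatrix' (σ g) i j ∈ F := by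
  obtain ⟨n, A, h⟩ := h
  refine ⟨n, (Matrix.toLinAlgEquiv' (R := ℂ) (n := Fin n)).toMonoidHom.comp
    (F.subtype.mapMatrix.toMonoidHom.comp A), funext fun g => ?_, fun g i j => ?_⟩
  · change LinearMap.trace ℂ _ (Matrix.toLin' ((A g).map F.subtype)) = _
    rw [h, Matrix.trace_toLin'_eq]
    simp [Matrix.trace]
  · change LinearMap.toMatrix' (Matrix.toLin' ((A g).map F.subtype)) i j ∈ F
    rw [LinearMap.toMatrix'_toLin']
    exact (A g i j).2

theorem IsFChar.isCharacter (h : IsFChar F χ) : IsCharacter G χ :=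
  let ⟨n, σ, h, _⟩ := h.exists_complex; ⟨n, σ, h⟩

theorem IsFChar.add (h₁ : IsFChar F χ) (h₂ : IsFChar F ψ) : IsFChar F (χ + ψ) := by
  obtain ⟨n, ρ, h₁⟩ := h₁.exists_rep
  obtain ⟨m, σ, h₂⟩ := h₂.exists_rep
  convert isFChar_character (ρ.prod σ) using 1
  funext g
  simp [character_prod, h₁, h₂]

theorem isFChar_zero : IsFChar F (0 : G → ℂ) := ⟨0, 1, fun g => by simp⟩

theorem character_mem_closure_isFIrr [Finite G] {V : Type*} [AddCommGroup V] [Module F V]
    [FiniteDimensional F V] (ρ : Representation F G V) :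
    (fun g => (ρ.character g : ℂ)) ∈ AddSubgroup.closure {ψ : G → ℂ | IsFIrr F ψ} := by
  induction hn : finrank F V using Nat.strong_induction_on generalizing V with
  | _ n ih =>
  rcases subsingleton_or_nontrivial V with hV | hV
  · have : (fun g => (ρ.character g : ℂ)) = 0 := by
      funext g; simp [Representation.character, Subsingleton.elim (ρ _) 0]
    exact this ▸ zero_mem _
  obtain ⟨U, hU⟩ := exists_irreducible_subrep ρ
  have : NeZero (Nat.card G : F) := ⟨by exact_mod_cast Nat.card_pos.ne'⟩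
  obtain ⟨U', hU'⟩ := exists_isCompl U
  have hc := subrep_isCompl_toSubmodule hU'
  have hlt : finrank F U'.toSubmodule < n := by
    have h1 := Submodule.finrank_add_eq_of_isCompl hc
    have h2 := finrank_pos_of_isIrreducible U.toRepresentation
    omega
  have : (fun g => (ρ.character g : ℂ)) = (fun g => (U.toRepresentation.character g : ℂ)) +
      fun g => (U'.toRepresentation.character g : ℂ) := by
    funext g
    simp [character_eq_add_of_isCompl U U' hc]
  rw [this]
  exact add_mem (AddSubgroup.subset_closure (isFIrr_character U.toRepresentation))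
    (ih _ hlt U'.toRepresentation rfl)

variable [Fintype G]

theorem IsFIrr.inner_eq_zero (h₁ : IsFIrr F χ) (h₂ : IsFIrr F ψ) (hne : χ ≠ ψ) :
    classInner χ ψ = 0 := by
  have hψ := h₂.isFChar.isCharacter
  obtain ⟨n, ρ, i₁, h₁⟩ := h₁
  obtain ⟨m, σ, i₂, h₂⟩ := h₂
  letI : Invertible (Nat.card G : F) := invertibleOfNonzero (by exact_mod_cast Nat.card_pos.ne')
  have h := card_inv_mul_sum_char_mul_char_eq_finrank σ ρ
  haveI : IsEmpty (σ.Equiv ρ) := ⟨fun e => hne (funext fun g => by rw [h₁, h₂, char_iso e])⟩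
  rw [finrank_eq_zero_of_subsingleton] at h
  have h' := congrArg F.subtype h
  simp only [map_mul, map_inv₀, map_natCast, map_sum, Subfield.coe_subtype, ← h₁, ← h₂,
    Nat.cast_zero, map_zero] at h'
  rw [classInner_def, ← h']
  simp [hψ.apply_inv]

/-- An irreducible character that is an integral combination of `F`-characters is one. -/
theorem isFChar_of_mem_closure (hχ : IsIrrCharacter G χ)
    (h : χ ∈ AddSubgroup.closure {ψ : G → ℂ | IsFIrr F ψ}) : IsFChar F χ := by
  classical
  rw [← Submodule.span_int_eq_addSubgroupClosure, Submodule.mem_toAddSubgroup,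
    Submodule.mem_span_iff_exists_finset_subset] at h
  obtain ⟨c, s, hs, -, e⟩ := h
  have hN : ∀ ψ ∈ s, ∃ k : ℕ, classInner ψ ψ = k := fun ψ h =>
    (hs h).isFChar.isCharacter.exists_inner_eq_nat (hs h).isFChar.isCharacter
  choose! k hk using hN
  have h1 : ∀ ψ ∈ s, classInner χ ψ = c ψ * k ψ := fun ψ h => by
    rw [← e, classInner_sum_left, Finset.sum_eq_single ψ (fun φ hφ hne => by
      rw [← Int.cast_smul_eq_zsmul ℂ, classInner_smul_left, (hs hφ).inner_eq_zero (hs h) hne,
        mul_zero]) (fun h' => (h' h).elim), ← Int.cast_smul_eq_zsmul ℂ, classInner_smul_left, hk ψ h]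
  have h2 : ∑ ψ ∈ s, c ψ * (c ψ * k ψ) = 1 := by
    have := hχ.inner_self
    nth_rw 2 [← e] at this
    rw [classInner_sum_right, Finset.sum_congr rfl fun ψ h => by
      rw [← Int.cast_smul_eq_zsmul ℂ, classInner_smul_right, h1 ψ h, map_intCast]] at this
    exact_mod_cast this
  obtain ⟨ψ, hψ, h3⟩ := Finset.exists_ne_zero_of_sum_ne_zero (h2 ▸ one_ne_zero)
  have h4 : c ψ * (c ψ * k ψ) ≤ 1 := h2 ▸ Finset.single_le_sum (f := fun ψ => c ψ * (c ψ * k ψ))
    (fun φ _ => by rw [← mul_assoc]; exact mul_nonneg (mul_self_nonneg _) (by positivity)) hψ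
  have hc0 : c ψ ≠ 0 := left_ne_zero_of_mul h3
  have hk0 : (k ψ : ℤ) ≠ 0 := right_ne_zero_of_mul (right_ne_zero_of_mul h3)
  have hk1 : k ψ = 1 := by
    have := mul_self_pos.2 hc0
    have : (k ψ : ℤ) ≤ 1 := by nlinarith [Int.natCast_nonneg (k ψ)]
    omega
  have hi : IsIrrCharacter G ψ := (hs hψ).isFChar.isCharacter.isIrrCharacter_of_inner_self
    (by rw [hk ψ hψ, hk1, Nat.cast_one])
  by_contra hn
  have := hχ.inner_eq_zero_of_ne hi fun e => hn (e ▸ (hs hψ).isFChar)
  rw [h1 ψ hψ] at this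
  exact mul_ne_zero hc0 hk0 (by exact_mod_cast this)

/-- Monomial representations. -/
theorem isFChar_indFun (E : Subgroup G) (lam : E →* ℂˣ) (h : ∀ e, (lam e : ℂ) ∈ F) :
    IsFChar F (indFun E fun e => (lam e : ℂ)) := by
  classical
  let μ : G → F := fun x => if hx : x ∈ E then ⟨lam ⟨x, hx⟩, h _⟩ else 0
  have hμ : ∀ x, (μ x : ℂ) = extendByZero E (fun e => (lam e : ℂ)) x := fun x => by
    rw [Induce.extendByZero_apply]
    simp only [μ]
    split_ifs <;> rfl
  have hmul : ∀ y ∈ E, ∀ z, μ y * μ (y⁻¹ * z) = μ z := fun y hy z => by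
    by_cases hz : z ∈ E
    · have hyz := E.mul_mem (E.inv_mem hy) hz
      simp only [μ, dif_pos hy, dif_pos hz, dif_pos hyz]
      refine Subtype.ext ?_
      change (lam ⟨y, hy⟩ : ℂ) * lam ⟨_, hyz⟩ = lam ⟨z, hz⟩
      rw [← Units.val_mul, ← map_mul]
      simp
    · have hyz : y⁻¹ * z ∉ E := fun h => hz (by simpa using E.mul_mem hy h)
      simp [μ, hz, hyz]
  let L : G →* Matrix G G F :=
    { toFun := fun g => Matrix.of fun x y => if x = g * y then 1 else 0
      map_one' := by ext x y; simp [Matrix.one_apply]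
      map_mul' := fun g k => by ext x y; simp [Matrix.mul_apply, mul_assoc] }
  let P : Matrix G G F := Matrix.of fun x y => (Nat.card E : F)⁻¹ * μ (x⁻¹ * y)
  have hE : (Nat.card E : F) ≠ 0 := by exact_mod_cast Nat.card_pos.ne'
  have hPL : ∀ g, P * L g = Matrix.of fun x y => (Nat.card E : F)⁻¹ * μ (x⁻¹ * g * y) := fun g => by
    ext x y; simp [P, L, Matrix.mul_apply, mul_assoc]
  have hc : ∀ g, P * L g = L g * P := fun g => by
    rw [hPL]
    ext x y
    simp [P, L, Matrix.mul_apply, mul_assoc, ← inv_mul_eq_iff_eq_mul]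
  have hP : P * P = P := by
    refine Matrix.ext fun x z => ?_
    simp only [P, Matrix.mul_apply, Matrix.of_apply]
    rw [← Equiv.sum_comp (Equiv.mulLeft x), Finset.sum_congr rfl
      (g := fun y => if y ∈ E then (Nat.card E : F)⁻¹ * (Nat.card E : F)⁻¹ * μ (x⁻¹ * z) else 0)
      fun y _ => by
        split_ifs with hy
        · rw [← hmul y hy (x⁻¹ * z)]; simp [mul_assoc]; ring
        · simp [μ, hy]]
    rw [← Finset.sum_filter, Finset.sum_const, ← Fintype.card_subtype, ← Nat.card_eq_fintype_card,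
      nsmul_eq_mul]
    field_simp
  let ρ : Representation F G (G → F) := (Matrix.toLinAlgEquiv' (R := F) (n := G)).toMonoidHom.comp L
  have hρ : ∀ g, ρ g = Matrix.toLinAlgEquiv' (L g) := fun _ => rfl
  have h1 : ∀ g, Matrix.toLinAlgEquiv' P * ρ g = ρ g * Matrix.toLinAlgEquiv' P := fun g => by
    rw [hρ, ← map_mul, ← map_mul, hc]
  convert isFChar_character (rangeRep ρ _ h1) using 1
  funext g
  rw [character_rangeRep ρ _ h1 (by rw [← map_mul, hP]), hρ, ← map_mul, hPL, Induce.indFun_apply]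
  change _ = ((LinearMap.trace F _ (Matrix.toLin' _) : F) : ℂ)
  rw [Matrix.trace_toLin'_eq]
  simp [Matrix.trace, hμ, Finset.mul_sum]

/-- Brauer's splitting field theorem. -/
theorem isFChar_of_roots (h : ∀ z : ℂ, z ^ Monoid.exponent G = 1 → z ∈ F)
    (hχ : IsCharacter G χ) : IsFChar F χ := by
  refine hχ.induction_on isFChar_zero fun ψ φ hψ _ hφ => IsFChar.add ?_ hφ
  refine isFChar_of_mem_closure hψ ((AddSubgroup.closure_le _).2 ?_
    (mem_linSpan_elementary hψ.isGeneralizedCharacter))
  rintro _ ⟨⟨E, lam⟩, -, rfl⟩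
  obtain ⟨n, ρ, e⟩ := (isFChar_indFun (F := F) E lam fun e => h _ (by
    rw [← Units.val_pow_eq_pow_val, ← map_pow, show e ^ Monoid.exponent G = 1 from
      Subtype.ext (by simp [Monoid.pow_exponent_eq_one]), map_one, Units.val_one])).exists_rep
  have := character_mem_closure_isFIrr ρ
  simp only [← e] at this
  exact this

end Cfsg.Lib.Char
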